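import Mathlib
import Cfsg.Agent.H887.SiegelMethod

/-!
Overgroups in the orthogonal group of the stabiliser of a pair of complementary totally singular
subspaces `U, W`: a subgroup `H` of `O Q` that contains the long root elements `T Q a b`,
`a ∈ U`, `b ∈ W`, `B(a,b) = 0`, and an element interchanging `U` and `W`, either permutes
`U, W` or contains `E Q`.
-/

set_option autoImplicit false

namespace Cfsg.Agent.H887.TS

open QuadraticMap Cfsg.Agent.LieClassical.OrthCore Cfsg.Agent.LieClassical.OrthTrans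
  Cfsg.Agent.LieClassical.OrthSimple Cfsg.Agent.ClassicalGeometry.OrthAutBasic
  Cfsg.Agent.H887.SiegelMethod

variable {F V : Type*} [Field F] [AddCommGroup V] [Module F V] {Q : QuadraticForm F V}

/-- A nonzero vector of the subspace `U` orthogonal to `n < dim U` given vectors. -/
theorem exists_perp_mem (U : Submodule F V) {n : ℕ} (u : Fin n → V)
    (hn : n < Module.finrank F U) : ∃ w ∈ U, w ≠ 0 ∧ ∀ i, polar Q (u i) w = 0 := by
  have : Module.Finite F U := Module.finite_of_finrank_pos (by omega)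
  let f : V →ₗ[F] (Fin n → F) := LinearMap.pi fun i => polarBilin Q (u i)
  let g : U →ₗ[F] (Fin n → F) := f.comp U.subtype
  have hker : LinearMap.ker g ≠ ⊥ := by
    apply LinearMap.ker_ne_bot_of_finrank_lt
    rw [Module.finrank_fin_fun]
    exact hn
  obtain ⟨w, hw, hw0⟩ := Submodule.exists_mem_ne_zero_of_ne_bot hker
  refine ⟨w, w.2, fun h => hw0 (Subtype.ext h), fun i => ?_⟩
  have := congrFun (LinearMap.mem_ker.1 hw) i
  simpa [g, f] using this

/-- Two complementary totally singular subspaces. -/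
structure TSPair (Q : QuadraticForm F V) (U W : Submodule F V) : Prop where
  tsU : ∀ u ∈ U, Q u = 0
  tsW : ∀ w ∈ W, Q w = 0
  sup : U ⊔ W = ⊤
  inf : U ⊓ W = ⊥

variable {U W : Submodule F V}

theorem TSPair.symm (P : TSPair Q U W) : TSPair Q W U :=
  ⟨P.tsW, P.tsU, by rw [sup_comm]; exact P.sup, by rw [inf_comm]; exact P.inf⟩

theorem TSPair.decomp (P : TSPair Q U W) (v : V) : ∃ a ∈ U, ∃ b ∈ W, v = a + b := by
  have h : v ∈ U ⊔ W := by rw [P.sup]; exact Submodule.mem_top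
  obtain ⟨a, ha, b, hb, h⟩ := Submodule.mem_sup.1 h
  exact ⟨a, ha, b, hb, h.symm⟩

theorem TSPair.eq_zero (P : TSPair Q U W) {v : V} (h1 : v ∈ U) (h2 : v ∈ W) : v = 0 := by
  have : v ∈ U ⊓ W := ⟨h1, h2⟩
  rw [P.inf] at this
  exact (Submodule.mem_bot F).1 this

theorem TSPair.polarU (P : TSPair Q U W) {a b : V} (ha : a ∈ U) (hb : b ∈ U) :
    polar Q a b = 0 := by
  have h := P.tsU _ (U.add_mem ha hb)
  rw [Q_add, P.tsU a ha, P.tsU b hb] at h
  simpa using h

theorem TSPair.polarW (P : TSPair Q U W) {a b : V} (ha : a ∈ W) (hb : b ∈ W) :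
    polar Q a b = 0 := P.symm.polarU ha hb

/-- A vector of `W` with prescribed products: `B(z, b) = 0`, `B(x, b) = 1` for `x, z ∈ U`,
`x` not a multiple of `z`. -/
theorem TSPair.exists_sepW (P : TSPair Q U W) (hQ : Nondeg Q) {x z : V} (hx : x ∈ U)
    (hz : z ∈ U) (h : ∀ c : F, x ≠ c • z) : ∃ b ∈ W, polar Q z b = 0 ∧ polar Q x b = 1 := by
  obtain ⟨y, hy1, hy2⟩ := exists_sep hQ h
  obtain ⟨a, ha, b, hb, rfl⟩ := P.decomp y
  rw [polar_add_right, P.polarU hz ha, zero_add] at hy1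
  rw [polar_add_right, P.polarU hx ha, zero_add] at hy2
  exact ⟨b, hb, hy1, hy2⟩

theorem TSPair.exists_dualW (P : TSPair Q U W) (hQ : Nondeg Q) {x : V} (hx : x ∈ U)
    (h : x ≠ 0) : ∃ b ∈ W, polar Q x b = 1 := by
  obtain ⟨b, hb, _, h2⟩ := P.exists_sepW hQ hx U.zero_mem (by simpa using h)
  exact ⟨b, hb, h2⟩

/-- The hypothesis on the overgroup. -/
structure Over (Q : QuadraticForm F V) (U W : Submodule F V) (H : Subgroup (V ≃ₗ[F] V)) :
    Prop where
  le : H ≤ O Q
  root : ∀ a ∈ U, ∀ b ∈ W, polar Q a b = 0 → T Q a b ∈ H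

variable {H : Subgroup (V ≃ₗ[F] V)}

theorem Over.symm (P : TSPair Q U W) (h : Over Q U W H) : Over Q W U H := by
  refine ⟨h.le, fun a ha b hb hab => ?_⟩
  rw [T_swap (P.tsW a ha) (P.tsU b hb) hab]
  refine h.root b hb (-a) (W.neg_mem ha) ?_
  rw [polar_neg_right, polar_comm, hab, neg_zero]

/-- `W ∩ u^⊥ ≤ Ts u` for `u ∈ U`. -/
theorem Over.mem_Ts (h : Over Q U W H) {u w : V} (hu : u ∈ U) (hw : w ∈ W)
    (huw : polar Q u w = 0) : w ∈ Ts Q H u := by
  refine ⟨huw, fun c => h.root u hu _ (W.smul_mem c hw) ?_⟩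
  rw [polar_smul_right, huw, smul_zero]

/-- If `Ts u`, `u ∈ U`, is not contained in `⟨u⟩ + W` then `Ts u = u^⊥`. -/
theorem Over.full (P : TSPair Q U W) (hQ : Nondeg Q) (h : Over Q U W H) {u x0 x1 : V}
    (hu : u ∈ U) (hx0 : x0 ∈ U) (hx1 : x1 ∈ W) (hx : x0 + x1 ∈ Ts Q H u)
    (hx0u : ∀ c : F, x0 ≠ c • u) : ∀ y, polar Q u y = 0 → y ∈ Ts Q H u := by
  have hx1u : polar Q u x1 = 0 := by
    have := hx.1
    rwa [polar_add_right, P.polarU hu hx0, zero_add] at this
  have hx0T : x0 ∈ Ts Q H u := by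
    have := (Ts Q H u).sub_mem hx (h.mem_Ts hu hx1 hx1u)
    rwa [add_sub_cancel_right] at this
  obtain ⟨b, hb, hub, hxb⟩ := P.exists_sepW hQ hx0 hu hx0u
  -- `U ∩ b^⊥ ≤ Ts u`
  have h1 : ∀ a ∈ U, polar Q a b = 0 → a ∈ Ts Q H u := by
    intro a ha hab
    have hfix : T Q a b u = u :=
      T_apply_fix (P.tsU a ha) hab (P.polarU ha hu) (by rw [polar_comm]; exact hub)
    have h2 := root_mem_Ts h.le (P.tsU a ha) (P.tsW b hb) hab (h.root a ha b hb hab) hfix hx0T
    rw [P.polarU ha hx0, zero_smul, zero_sub, polar_comm, hxb, one_smul] at h2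
    simpa using (Ts Q H u).neg_mem h2
  have h2 : ∀ a ∈ U, a ∈ Ts Q H u := by
    intro a ha
    have h3 : a - polar Q a b • x0 ∈ Ts Q H u := by
      refine h1 _ (U.sub_mem ha (U.smul_mem _ hx0)) ?_
      rw [polar_sub_left, polar_smul_left, hxb, smul_eq_mul, mul_one, sub_self]
    have h4 := (Ts Q H u).add_mem h3 ((Ts Q H u).smul_mem (polar Q a b) hx0T)
    rwa [sub_add_cancel] at h4
  intro y hy
  obtain ⟨a, ha, c, hc, rfl⟩ := P.decomp y
  rw [polar_add_right, P.polarU hu ha, zero_add] at hy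
  exact (Ts Q H u).add_mem (h2 a ha) (h.mem_Ts hu hc hy)

/-- If one `Ts u`, `u ∈ U` nonzero, is full, all are. -/
theorem Over.full_all (P : TSPair Q U W) (hQ : Nondeg Q) (h : Over Q U W H) {u : V}
    (hu : u ∈ U) (hu0 : u ≠ 0) (hdim : 2 ≤ Module.finrank F U)
    (hfull : ∀ y, polar Q u y = 0 → y ∈ Ts Q H u) :
    ∀ x ∈ U, ∀ y, polar Q x y = 0 → y ∈ Ts Q H x := by
  -- first for `x` not a multiple of `u`
  have key : ∀ {u x : V}, u ∈ U → (∀ y, polar Q u y = 0 → y ∈ Ts Q H u) → x ∈ U →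
      (∀ c : F, u ≠ c • x) → ∀ y, polar Q x y = 0 → y ∈ Ts Q H x := by
    intro u x hu hfull hx hux
    have h1 : u ∈ Ts Q H x := by
      rw [mem_Ts_comm (P.tsU x hx) (P.tsU u hu)]
      exact hfull x (P.polarU hu hx)
    have h2 : u + 0 ∈ Ts Q H x := by rwa [add_zero]
    exact h.full P hQ hx hu W.zero_mem h2 hux
  intro x hx
  by_cases hux : ∀ c : F, u ≠ c • x
  · exact key hu hfull hx hux
  · push Not at hux
    obtain ⟨c, hc⟩ := hux
    have hx0 : x ≠ 0 := by rintro rfl; rw [smul_zero] at hc; exact hu0 hc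
    -- choose `z ∈ U` not a multiple of `u`
    obtain ⟨w, hw, hw1⟩ := P.exists_dualW hQ hx hx0
    obtain ⟨z, hz, hz0, hz1⟩ := exists_perp_mem (Q := Q) U ![w] (by omega)
    have hzw : polar Q w z = 0 := hz1 0
    have hzx : ∀ c : F, z ≠ c • x := by
      rintro d rfl
      rw [polar_smul_right, polar_comm, hw1, smul_eq_mul, mul_one] at hzw
      exact hz0 (by rw [hzw, zero_smul])
    have huz : ∀ d : F, u ≠ d • z := by
      intro d hd
      have h1 : polar Q w u = 0 := by rw [hd, polar_smul_right, hzw, smul_zero]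
      rw [hc, polar_smul_right, polar_comm, hw1, smul_eq_mul, mul_one] at h1
      apply hu0
      rw [hc, h1, zero_smul]
    exact key hz (key hu hfull hz huz) hx hzx

/-- If some `Ts u`, `u ∈ U` nonzero, is full and an element of `H` maps `U` onto `W` then
`E Q ≤ H`. -/
theorem Over.E_le (P : TSPair Q U W) (hG : Good Q) (h : Over Q U W H) {u : V}
    (hu : u ∈ U) (hu0 : u ≠ 0) (hdim : 2 ≤ Module.finrank F U)
    (hfull : ∀ y, polar Q u y = 0 → y ∈ Ts Q H u) {s : V ≃ₗ[F] V} (hs : s ∈ H)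
    (hsU : ∀ a ∈ U, s a ∈ W) : E Q ≤ H := by
  have hall := h.full_all P hG.nondeg hu hu0 hdim hfull
  have hsO := h.le hs
  have hsu0 : s u ≠ 0 := by
    intro h0
    exact hu0 (s.map_eq_zero_iff.1 h0)
  obtain ⟨a, ha, ha1⟩ := P.symm.exists_dualW hG.nondeg (hsU u hu) hsu0
  refine E_le_of_Ts hG (P.tsU a ha) (P.tsW _ (hsU u hu)) (e := a) (f := s u) ?_
    (fun x hx => hall a ha x hx) ?_
  · rw [polar_comm, ha1]
    exact one_ne_zero
  · intro x hx
    obtain ⟨y, rfl⟩ := s.surjective x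
    rw [polar_map hsO] at hx
    exact map_mem_Ts hs hsO (hall u hu y hx)

/-- The main step: if no `Ts` is full, then `h u ∈ U ∪ W` for `h ∈ H`, `u ∈ U`. -/
theorem Over.image (P : TSPair Q U W) (hQ : Nondeg Q) (h : Over Q U W H)
    (hdimU : 5 ≤ Module.finrank F U) (hdimW : 5 ≤ Module.finrank F W)
    (hnU : ∀ u ∈ U, ∀ x0 ∈ U, ∀ x1 ∈ W, u ≠ 0 → x0 + x1 ∈ Ts Q H u → ∃ c : F, x0 = c • u)
    (hnW : ∀ u ∈ W, ∀ x0 ∈ W, ∀ x1 ∈ U, u ≠ 0 → x0 + x1 ∈ Ts Q H u → ∃ c : F, x0 = c • u)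
    {g : V ≃ₗ[F] V} (hg : g ∈ H) {u : V} (hu : u ∈ U) : g u ∈ U ∨ g u ∈ W := by
  by_cases hu0 : u = 0
  · left; rw [hu0, map_zero]; exact U.zero_mem
  have hgO := h.le hg
  have : Module.Finite F U := Module.finite_of_finrank_pos (by omega)
  have : Module.Finite F W := Module.finite_of_finrank_pos (by omega)
  obtain ⟨x0, hx0, x1, hx1, hr⟩ := P.decomp (g u)
  by_contra hcon
  push Not at hcon
  have hx00 : x0 ≠ 0 := by
    rintro rfl
    apply hcon.2
    rw [hr, zero_add]; exact hx1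
  have hx10 : x1 ≠ 0 := by
    rintro rfl
    apply hcon.1
    rw [hr, add_zero]; exact hx0
  have hrQ : Q (x0 + x1) = 0 := by rw [← hr, mem_O.1 hgO]; exact P.tsU u hu
  have h01 : polar Q x0 x1 = 0 := by
    rw [Q_add, P.tsU x0 hx0, P.tsW x1 hx1] at hrQ
    simpa using hrQ
  -- `U`-components of elements of `Ts r` are multiples of `x0`
  have key : ∀ {U W : Submodule F V} (_ : TSPair Q U W) (_ : Over Q U W H)
      (_ : 5 ≤ Module.finrank F U)
      (_ : ∀ u ∈ U, ∀ x0 ∈ U, ∀ x1 ∈ W, u ≠ 0 → x0 + x1 ∈ Ts Q H u → ∃ c : F, x0 = c • u)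
      {x0 x1 : V} (_ : x0 ∈ U) (_ : x1 ∈ W) (_ : x0 ≠ 0) (_ : polar Q x0 x1 = 0)
      {s0 s1 : V} (_ : s0 ∈ U) (_ : s1 ∈ W) (_ : s0 + s1 ∈ Ts Q H (x0 + x1)),
      ∃ c : F, s0 = c • x0 := by
    intro U W P h hdimU hnU x0 x1 hx0 hx1 hx00 h01 s0 s1 hs0 hs1 hs
    by_contra hcon
    push Not at hcon
    obtain ⟨b, hb, hb1, hb2⟩ := P.exists_sepW hQ hs0 hx0 hcon
    obtain ⟨w0, hw0, hw01⟩ := P.exists_dualW hQ hx0 hx00
    obtain ⟨a, ha, ha0, ha1⟩ := exists_perp_mem (Q := Q) U ![x1, b, s1, w0] (by omega)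
    have e1 : polar Q x1 a = 0 := ha1 0
    have e2 : polar Q b a = 0 := ha1 1
    have e3 : polar Q s1 a = 0 := ha1 2
    have e4 : polar Q w0 a = 0 := ha1 3
    have hab : polar Q a b = 0 := by rw [polar_comm]; exact e2
    have hrQ : Q (x0 + x1) = 0 := by
      rw [Q_add, P.tsU x0 hx0, P.tsW x1 hx1, h01]; simp
    have hfix : T Q a b (x0 + x1) = x0 + x1 := by
      refine T_apply_fix (P.tsU a ha) hab ?_ ?_
      · rw [polar_add_right, P.polarU ha hx0, polar_comm, e1, add_zero]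
      · rw [polar_add_right, polar_comm, hb1, P.polarW hb hx1, add_zero]
    have h2 := root_mem_Ts h.le (P.tsU a ha) (P.tsW b hb) hab (h.root a ha b hb hab) hfix hs
    have e5 : polar Q a (s0 + s1) = 0 := by
      rw [polar_add_right, P.polarU ha hs0, polar_comm, e3, add_zero]
    have e6 : polar Q b (s0 + s1) = 1 := by
      rw [polar_add_right, polar_comm, hb2, P.polarW hb hs1, add_zero]
    rw [e5, e6, zero_smul, zero_sub, one_smul] at h2
    have h3 : a ∈ Ts Q H (x0 + x1) := by simpa using (Ts Q H (x0 + x1)).neg_mem h2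
    rw [mem_Ts_comm hrQ (P.tsU a ha)] at h3
    obtain ⟨c, hc⟩ := hnU a ha x0 hx0 x1 hx1 ha0 h3
    have h4 : polar Q x0 w0 = 0 := by
      rw [hc, polar_smul_left, polar_comm, e4, smul_zero]
    rw [hw01] at h4
    exact one_ne_zero h4
  -- `Ts r` is contained in `⟨x0, x1⟩`
  have hle : Ts Q H (x0 + x1) ≤ Submodule.span F (Set.range ![x0, x1]) := by
    intro s hs
    obtain ⟨s0, hs0, s1, hs1, rfl⟩ := P.decomp s
    obtain ⟨c, hc⟩ := key P h hdimU hnU hx0 hx1 hx00 h01 hs0 hs1 hs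
    have hs' : s1 + s0 ∈ Ts Q H (x1 + x0) := by
      rw [add_comm s1, add_comm x1]; exact hs
    obtain ⟨d, hd⟩ := key P.symm (h.symm P) hdimW hnW hx1 hx0 hx10
      (by rw [polar_comm]; exact h01) hs1 hs0 hs'
    rw [hc, hd]
    refine Submodule.add_mem _ (Submodule.smul_mem _ _ (Submodule.subset_span ⟨0, rfl⟩))
      (Submodule.smul_mem _ _ (Submodule.subset_span ⟨1, rfl⟩))
  have hfinspan : Module.Finite F (Submodule.span F (Set.range ![x0, x1])) :=
    Module.Finite.span_of_finite F (Set.finite_range _)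
  have hfr : Module.finrank F (Ts Q H (x0 + x1)) ≤ 2 := by
    refine (Submodule.finrank_mono hle).trans ?_
    refine (finrank_range_le_card (R := F) ![x0, x1]).trans ?_
    simp
  -- but `W ∩ u^⊥` has dimension at least 4
  let X : Submodule F V := W ⊓ LinearMap.ker (polarBilin Q u)
  have hX : X ≤ Ts Q H u := by
    rintro x ⟨hx1, hx2⟩
    refine h.mem_Ts hu hx1 ?_
    simpa using hx2
  have hXmap : X.map (g : V →ₗ[F] V) ≤ Ts Q H (x0 + x1) := by
    rw [← hr, ← map_Ts hg hgO]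
    exact Submodule.map_mono hX
  have hXfr : Module.finrank F (X.map (g : V →ₗ[F] V)) = Module.finrank F X :=
    LinearEquiv.finrank_map_eq g X
  have hfin : Module.Finite F (Ts Q H (x0 + x1)) := Submodule.finiteDimensional_of_le hle
  have hX2 : Module.finrank F X ≤ 2 := by
    rw [← hXfr]
    exact (Submodule.finrank_mono hXmap).trans hfr
  -- contradiction
  have hX4 : 4 ≤ Module.finrank F X := by
    let f : W →ₗ[F] F := (polarBilin Q u).comp W.subtype
    have h1 := LinearMap.finrank_range_add_finrank_ker f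
    have h2 : Module.finrank F (LinearMap.range f) ≤ 1 := by
      have := Submodule.finrank_le (LinearMap.range f)
      rwa [Module.finrank_self] at this
    have h3 : (LinearMap.ker f).map W.subtype ≤ X := by
      rintro _ ⟨y, hy, rfl⟩
      exact ⟨y.2, by simpa [f] using hy⟩
    have h4 : Module.finrank F ((LinearMap.ker f).map W.subtype) =
        Module.finrank F (LinearMap.ker f) :=
      Submodule.finrank_map_subtype_eq W (LinearMap.ker f)
    have : Module.Finite F X := Submodule.finiteDimensional_of_le (inf_le_left : X ≤ W)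
    have h5 := Submodule.finrank_mono h3
    omega
  omega

end Cfsg.Agent.H887.TS
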