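import Mathlib
import Cfsg.Agent.H887.TSPair

/-!
The element of `E Q` that interchanges two complementary totally singular subspaces of even
dimension, and the overgroup theorem for the stabiliser of such a pair.
-/

set_option autoImplicit false

namespace Cfsg.Agent.H887.TS

open QuadraticMap Cfsg.Agent.LieClassical.OrthCore Cfsg.Agent.LieClassical.OrthTrans
  Cfsg.Agent.LieClassical.OrthSimple Cfsg.Agent.ClassicalGeometry.OrthAutBasic
  Cfsg.Agent.H887.SiegelMethod

variable {F V : Type*} [Field F] [AddCommGroup V] [Module F V] {Q : QuadraticForm F V}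
variable {U W : Submodule F V}

/-- Dual bases of `U` and `W`. -/
theorem TSPair.exists_dual_basis (P : TSPair Q U W) (hQ : Nondeg Q) {k : ℕ}
    (hU : Module.finrank F U = k) (hW : Module.finrank F W = k) (hk : 0 < k) :
    ∃ (e f : Fin k → V), (∀ i, e i ∈ U) ∧ (∀ i, f i ∈ W) ∧
      (∀ i j, polar Q (e i) (f j) = if i = j then 1 else 0) ∧
      (∀ a ∈ U, a = ∑ i, polar Q a (f i) • e i) ∧ (∀ b ∈ W, b = ∑ i, polar Q b (e i) • f i) := by
  have hfU : Module.Finite F U := Module.finite_of_finrank_pos (by omega)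
  have hfW : Module.Finite F W := Module.finite_of_finrank_pos (by omega)
  let e := Module.finBasisOfFinrankEq F U hU
  -- the pairing
  let Φ : W →ₗ[F] Module.Dual F U :=
    ((polarBilin Q).domRestrict₁₂ W U)
  have hΦ : ∀ (w : W) (u : U), Φ w u = polar Q (w : V) (u : V) := fun w u => rfl
  have hinj : Function.Injective Φ := by
    rw [← LinearMap.ker_eq_bot, LinearMap.ker_eq_bot']
    intro w hw
    apply Subtype.ext
    apply hQ
    intro y
    obtain ⟨a, ha, b, hb, rfl⟩ := P.decomp y
    rw [polar_add_right, P.polarW w.2 hb, add_zero]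
    have := hΦ w ⟨a, ha⟩
    rw [hw] at this
    exact this.symm
  have hsurj : Function.Surjective Φ := by
    rw [← LinearMap.injective_iff_surjective_of_finrank_eq_finrank]
    · exact hinj
    · rw [Subspace.dual_finrank_eq, hU, hW]
  choose f hf using fun i => hsurj (e.coord i)
  have hef : ∀ i j, polar Q ((e i : U) : V) ((f j : W) : V) = if i = j then 1 else 0 := by
    intro i j
    rw [polar_comm, ← hΦ, hf, Module.Basis.coord_apply, Module.Basis.repr_self,
      Finsupp.single_apply]
  refine ⟨fun i => e i, fun i => f i, fun i => (e i).2, fun i => (f i).2, hef, ?_, ?_⟩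
  · intro a ha
    have h1 : ∀ i, polar Q a (f i : V) = e.repr ⟨a, ha⟩ i := by
      intro i
      rw [polar_comm, ← hΦ (f i) ⟨a, ha⟩, hf, Module.Basis.coord_apply]
    have h2 : ((∑ i, (e.repr ⟨a, ha⟩ i) • e i : U) : V) = a :=
      congrArg (Subtype.val) (e.sum_repr ⟨a, ha⟩)
    have h3 : a = ∑ i, (e.repr ⟨a, ha⟩ i) • (e i : V) := by
      rw [Submodule.coe_sum] at h2
      exact h2.symm
    refine h3.trans ?_
    exact Finset.sum_congr rfl fun i _ => by rw [← h1 i]
  · intro b hb
    have h1 : (⟨b, hb⟩ : W) = ∑ i, polar Q b (e i : V) • f i := by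
      apply hinj
      refine e.ext fun j => ?_
      rw [hΦ, map_sum, LinearMap.sum_apply]
      simp only [map_smul, LinearMap.smul_apply, hf, Module.Basis.coord_apply,
        Module.Basis.repr_self, Finsupp.single_apply, smul_eq_mul, mul_ite, mul_one, mul_zero]
      rw [Finset.sum_ite_eq]
      simp
    have h2 := congrArg (Subtype.val) h1
    simpa using h2

/-- **The swap.** -/
theorem TSPair.exists_swap (P : TSPair Q U W) (hG : Good Q) {k : ℕ}
    (hU : Module.finrank F U = k) (hW : Module.finrank F W = k) (hk : 0 < k) (hke : Even k) :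
    ∃ s ∈ E Q, (∀ a ∈ U, s a ∈ W) ∧ ∀ b ∈ W, s b ∈ U := by
  obtain ⟨e, f, he, hf, hef, hsU, hsW⟩ := P.exists_dual_basis hG.nondeg hU hW hk
  have hv : ∀ i, Q (e i - f i) = -1 := by
    intro i
    rw [sub_eq_add_neg, Q_add, QuadraticMap.map_neg, polar_neg_right, P.tsU _ (he i),
      P.tsW _ (hf i), hef]
    simp
  have hv0 : ∀ i, Q (e i - f i) ≠ 0 := by
    intro i; rw [hv i]; simp
  -- the effect of the reflections
  have hre : ∀ i j, refl Q (e i - f i) (hv0 i) (e j) = if i = j then f j else e j := by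
    intro i j
    rw [refl_apply, hv, polar_sub_left, P.polarU (he i) (he j), polar_comm Q (f i), hef]
    by_cases h : i = j
    · subst h; simp
    · have h' : ¬ j = i := fun h1 => h h1.symm
      simp [h, h']
  have hrf : ∀ i j, refl Q (e i - f i) (hv0 i) (f j) = if i = j then e j else f j := by
    intro i j
    rw [refl_apply, hv, polar_sub_left, P.polarW (hf i) (hf j), hef]
    by_cases h : i = j
    · subst h; simp
    · simp [h]
  have key : ∀ m : ℕ, 2 * m ≤ k → ∃ g ∈ E Q,
      (∀ i : Fin k, (i : ℕ) < 2 * m → g (e i) = f i ∧ g (f i) = e i) ∧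
      (∀ i : Fin k, 2 * m ≤ (i : ℕ) → g (e i) = e i ∧ g (f i) = f i) := by
    intro m
    induction m with
    | zero =>
      intro _
      exact ⟨1, (E Q).one_mem, fun i hi => absurd hi (by omega), fun i _ => ⟨rfl, rfl⟩⟩
    | succ m ih =>
      intro hm
      obtain ⟨g, hg, h1, h2⟩ := ih (by omega)
      let a : Fin k := ⟨2 * m, by omega⟩
      let b : Fin k := ⟨2 * m + 1, by omega⟩
      have hab : a ≠ b := by
        intro h
        have := congrArg Fin.val h
        simp only [a, b] at this
        omega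
      refine ⟨g * (refl Q (e a - f a) (hv0 a) * refl Q (e b - f b) (hv0 b)),
        (E Q).mul_mem hg (hG.refl_mul_refl_mem (hv0 b) (hv0 a) (by rw [hv, hv])), ?_, ?_⟩
      · intro i hi
        have e1 : (g * (refl Q (e a - f a) (hv0 a) * refl Q (e b - f b) (hv0 b))) (e i) =
          g (refl Q (e a - f a) (hv0 a) (refl Q (e b - f b) (hv0 b) (e i))) := rfl
        have e2 : (g * (refl Q (e a - f a) (hv0 a) * refl Q (e b - f b) (hv0 b))) (f i) =
          g (refl Q (e a - f a) (hv0 a) (refl Q (e b - f b) (hv0 b) (f i))) := rfl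
        rw [e1, e2, hre b i, hrf b i]
        by_cases hbi : b = i
        · subst hbi
          rw [if_pos rfl, if_pos rfl, hrf a b, hre a b, if_neg hab, if_neg hab]
          exact ⟨(h2 b (by simp only [b]; omega)).2, (h2 b (by simp only [b]; omega)).1⟩
        · rw [if_neg hbi, if_neg hbi, hre a i, hrf a i]
          by_cases hai : a = i
          · subst hai
            rw [if_pos rfl, if_pos rfl]
            exact ⟨(h2 a (by simp only [a]; omega)).2, (h2 a (by simp only [a]; omega)).1⟩
          · rw [if_neg hai, if_neg hai]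
            refine h1 i ?_
            have h3 : (i : ℕ) ≠ 2 * m := fun h => hai (Fin.ext h.symm)
            have h4 : (i : ℕ) ≠ 2 * m + 1 := fun h => hbi (Fin.ext h.symm)
            omega
      · intro i hi
        have hai : a ≠ i := by
          intro h
          have := congrArg Fin.val h
          simp only [a] at this
          omega
        have hbi : b ≠ i := by
          intro h
          have := congrArg Fin.val h
          simp only [b] at this
          omega
        have e1 : (g * (refl Q (e a - f a) (hv0 a) * refl Q (e b - f b) (hv0 b))) (e i) =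
          g (refl Q (e a - f a) (hv0 a) (refl Q (e b - f b) (hv0 b) (e i))) := rfl
        have e2 : (g * (refl Q (e a - f a) (hv0 a) * refl Q (e b - f b) (hv0 b))) (f i) =
          g (refl Q (e a - f a) (hv0 a) (refl Q (e b - f b) (hv0 b) (f i))) := rfl
        rw [e1, e2, hre b i, hrf b i, if_neg hbi, if_neg hbi, hre a i, hrf a i, if_neg hai,
          if_neg hai]
        exact h2 i (by omega)
  obtain ⟨m, hm⟩ := hke
  obtain ⟨g, hg, h1, -⟩ := key m (by omega)
  refine ⟨g, hg, ?_, ?_⟩
  · intro a ha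
    rw [hsU a ha, map_sum]
    refine W.sum_mem fun i _ => ?_
    rw [map_smul, (h1 i (by omega)).1]
    exact W.smul_mem _ (hf i)
  · intro b hb
    rw [hsW b hb, map_sum]
    refine U.sum_mem fun i _ => ?_
    rw [map_smul, (h1 i (by omega)).2]
    exact U.smul_mem _ (he i)

/-- A linear image of a subspace contained in a union of two subspaces is contained in one. -/
theorem image_union {U A B : Submodule F V} {g : V ≃ₗ[F] V}
    (h : ∀ u ∈ U, g u ∈ A ∨ g u ∈ B) : (∀ u ∈ U, g u ∈ A) ∨ (∀ u ∈ U, g u ∈ B) := by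
  by_contra hcon
  push Not at hcon
  obtain ⟨⟨u, hu, hu'⟩, ⟨v, hv, hv'⟩⟩ := hcon
  have h1 : g u ∈ B := (h u hu).resolve_left hu'
  have h2 : g v ∈ A := (h v hv).resolve_right hv'
  rcases h (u + v) (U.add_mem hu hv) with h3 | h3
  · rw [map_add] at h3
    exact hu' (by simpa using A.sub_mem h3 h2)
  · rw [map_add] at h3
    exact hv' (by simpa using B.sub_mem h3 h1)

theorem map_eq_of_le {U A : Submodule F V} {g : V ≃ₗ[F] V} (hA : 0 < Module.finrank F A)
    (hfr : Module.finrank F U = Module.finrank F A) (h : ∀ u ∈ U, g u ∈ A) :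
    U.map (g : V →ₗ[F] V) = A := by
  have : Module.Finite F A := Module.finite_of_finrank_pos hA
  refine Submodule.eq_of_le_of_finrank_eq ?_ ?_
  · rintro _ ⟨u, hu, rfl⟩
    exact h u hu
  · rw [LinearEquiv.finrank_map_eq g U, hfr]

/-- **Overgroups of the stabiliser of a pair of complementary totally singular subspaces.** -/
theorem Over.main {H : Subgroup (V ≃ₗ[F] V)} (P : TSPair Q U W) (hG : Good Q)
    (h : Over Q U W H) {k : ℕ} (hU : Module.finrank F U = k) (hW : Module.finrank F W = k)
    (hk : 5 ≤ k) {s : V ≃ₗ[F] V} (hs : s ∈ H) (hsU : ∀ a ∈ U, s a ∈ W)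
    (hsW : ∀ b ∈ W, s b ∈ U) {g : V ≃ₗ[F] V} (hg : g ∈ H)
    (hgn : ¬ ((U.map (g : V →ₗ[F] V) = U ∧ W.map (g : V →ₗ[F] V) = W) ∨
      (U.map (g : V →ₗ[F] V) = W ∧ W.map (g : V →ₗ[F] V) = U))) : E Q ≤ H := by
  by_cases hnU : ∀ u ∈ U, ∀ x0 ∈ U, ∀ x1 ∈ W, u ≠ 0 → x0 + x1 ∈ Ts Q H u → ∃ c : F, x0 = c • u
  swap
  · push Not at hnU
    obtain ⟨u, hu, x0, hx0, x1, hx1, hu0, hx, hc⟩ := hnU
    exact h.E_le P hG hu hu0 (by omega) (h.full P hG.nondeg hu hx0 hx1 hx hc) hs hsU
  by_cases hnW : ∀ u ∈ W, ∀ x0 ∈ W, ∀ x1 ∈ U, u ≠ 0 → x0 + x1 ∈ Ts Q H u → ∃ c : F, x0 = c • u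
  swap
  · push Not at hnW
    obtain ⟨u, hu, x0, hx0, x1, hx1, hu0, hx, hc⟩ := hnW
    exact (h.symm P).E_le P.symm hG hu hu0 (by omega)
      ((h.symm P).full P.symm hG.nondeg hu hx0 hx1 hx hc) hs hsW
  exfalso
  apply hgn
  have h1 := image_union (g := g) (U := U) (A := U) (B := W) fun u hu =>
    h.image P hG.nondeg (by omega) (by omega) hnU hnW hg hu
  have h2 := image_union (g := g) (U := W) (A := W) (B := U) fun u hu =>
    (h.symm P).image P.symm hG.nondeg (by omega) (by omega) hnW hnU hg hu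
  have hVd : ∀ A : Submodule F V, (∀ u ∈ U, g u ∈ A) → (∀ u ∈ W, g u ∈ A) → A = ⊤ := by
    intro A hA hB
    rw [eq_top_iff]
    intro v _
    obtain ⟨v, rfl⟩ := g.surjective v
    obtain ⟨a, ha, b, hb, rfl⟩ := P.decomp v
    rw [map_add]
    exact A.add_mem (hA a ha) (hB b hb)
  rcases h1 with h1 | h1 <;> rcases h2 with h2 | h2
  · left
    exact ⟨map_eq_of_le (by omega) rfl h1, map_eq_of_le (by omega) rfl h2⟩
  · exfalso
    have := hVd U h1 h2
    have h3 := P.inf
    rw [this, top_inf_eq] at h3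
    rw [h3, finrank_bot] at hW
    omega
  · exfalso
    have := hVd W h1 h2
    have h3 := P.inf
    rw [this, inf_top_eq] at h3
    rw [h3, finrank_bot] at hU
    omega
  · right
    exact ⟨map_eq_of_le (by omega) (by omega) h1, map_eq_of_le (by omega) (by omega) h2⟩

end Cfsg.Agent.H887.TS
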