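import Mathlib
import Cfsg.Agent.H887.OmegaBridge
import Cfsg.Agent.H887.TSSwap

/-!
The frozen decomposition stabiliser of two complementary totally singular subspaces.
-/

set_option autoImplicit false

namespace Cfsg.Agent.H887.TS

open QuadraticMap Cfsg.Agent.LieClassical.OrthCore Cfsg.Agent.LieClassical.OrthTrans
  Cfsg.Agent.LieClassical.OrthSimple Cfsg.Agent.ClassicalGeometry.OrthAutBasic
  Cfsg.Agent.H887.SiegelMethod Cfsg.Agent.H887.OmegaBridge

variable {F V : Type*} [Field F] [AddCommGroup V] [Module F V] {Q : QuadraticForm F V}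

theorem mem_decStab_two {D : Fin 2 → Submodule F V} {g : V ≃ₗ[F] V} :
    g ∈ decStab D ↔ (((D 0).map (g : V →ₗ[F] V) = D 0 ∧ (D 1).map (g : V →ₗ[F] V) = D 1) ∨
      ((D 0).map (g : V →ₗ[F] V) = D 1 ∧ (D 1).map (g : V →ₗ[F] V) = D 0)) := by
  constructor
  · rintro ⟨σ, h⟩
    have h0 := h 0
    have h1 := h 1
    have hinj := σ.injective
    have hne : σ 0 ≠ σ 1 := fun h => absurd (hinj h) (by decide)
    have two : ∀ i : Fin 2, i = 0 ∨ i = 1 := by decide
    rcases two (σ 0) with h2 | h2 <;> rcases two (σ 1) with h3 | h3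
    · exact absurd (h2.trans h3.symm) hne
    · left; rw [h2] at h0; rw [h3] at h1
      exact ⟨h0, h1⟩
    · right; rw [h2] at h0; rw [h3] at h1
      exact ⟨h0, h1⟩
    · exact absurd (h2.trans h3.symm) hne
  · rintro (⟨h0, h1⟩ | ⟨h0, h1⟩)
    · refine ⟨1, fun i => ?_⟩
      fin_cases i
      · exact h0
      · exact h1
    · refine ⟨Equiv.swap 0 1, fun i => ?_⟩
      fin_cases i
      · simpa using h0
      · simpa using h1

theorem isCompl_of_decomp {ι : Type} [Fintype ι] [DecidableEq ι] {k : ℕ}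
    {D : Fin 2 → Submodule F (ι → F)} (hD : Cfsg.Geo.IsMDecomposition k D) :
    D 0 ⊔ D 1 = ⊤ ∧ D 0 ⊓ D 1 = ⊥ := by
  constructor
  · have h := hD.iSup_eq_top
    rw [eq_top_iff, ← h]
    refine iSup_le fun i => ?_
    fin_cases i
    · exact le_sup_left
    · exact le_sup_right
  · have h := hD.indep.pairwiseDisjoint (show (0 : Fin 2) ≠ 1 by decide)
    exact h.eq_bot

theorem tsPair_of_decomp {ι : Type} [Fintype ι] [DecidableEq ι] {k : ℕ} (Q : (ι → F) → F)
    (hQ : Cfsg.Geo.IsNondegenerateQuadraticForm Q)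
    {D : Fin 2 → Submodule F (ι → F)} (hD : Cfsg.Geo.IsMDecomposition k D)
    (hts : ∀ i, Cfsg.Geo.IsTotallySingularQuad Q (D i)) : TSPair (qf Q hQ) (D 0) (D 1) :=
  ⟨hts 0, hts 1, (isCompl_of_decomp hD).1, (isCompl_of_decomp hD).2⟩

variable {U W : Submodule F V}

theorem map_eq_self_of_le {A : Submodule F V} {g : V ≃ₗ[F] V} (h : ∀ u ∈ A, g u ∈ A)
    (h' : ∀ u ∈ A, g⁻¹ u ∈ A) : A.map (g : V →ₗ[F] V) = A := by
  apply le_antisymm
  · rintro _ ⟨u, hu, rfl⟩
    exact h u hu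
  · intro u hu
    exact ⟨g⁻¹ u, h' u hu, LinearEquiv.apply_symm_apply g u⟩

/-- The long root element `T a b` with `a ∈ U`, `b ∈ W` preserves `U` and `W`. -/
theorem TSPair.root_map (P : TSPair Q U W) {a b : V} (ha : a ∈ U) (hb : b ∈ W)
    (hab : polar Q a b = 0) : U.map (T Q a b : V →ₗ[F] V) = U := by
  have key : ∀ {b : V}, b ∈ W → polar Q a b = 0 → ∀ u ∈ U, T Q a b u ∈ U := by
    intro b hb hab u hu
    rw [T_apply_perp (P.tsU a ha) hab (P.polarU ha hu)]
    exact U.sub_mem hu (U.smul_mem _ ha)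
  refine map_eq_self_of_le (key hb hab) ?_
  rw [T_inv (P.tsU a ha) hab]
  exact key (W.neg_mem hb) (by rw [polar_neg_right, hab, neg_zero])

theorem TSPair.root_map' (P : TSPair Q U W) {a b : V} (ha : a ∈ U) (hb : b ∈ W)
    (hab : polar Q a b = 0) : W.map (T Q a b : V →ₗ[F] V) = W := by
  rw [T_swap (P.tsU a ha) (P.tsW b hb) hab]
  exact P.symm.root_map hb (U.neg_mem ha) (by rw [polar_neg_right, polar_comm, hab, neg_zero])

/-- A long root element with both parameters in `U` fixes `U` and moves `W`. -/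
theorem TSPair.exists_move (P : TSPair Q U W) (hQ : Nondeg Q) (hU : 2 ≤ Module.finrank F U) :
    ∃ g ∈ E Q, U.map (g : V →ₗ[F] V) = U ∧ W.map (g : V →ₗ[F] V) ≠ W := by
  obtain ⟨a, ha, ha0, -⟩ := exists_perp_mem (Q := Q) U ![] (by omega)
  obtain ⟨w, hw, haw⟩ := P.exists_dualW hQ ha ha0
  obtain ⟨b, hb, hb0, hb1⟩ := exists_perp_mem (Q := Q) U ![w] (by omega)
  have hbw : polar Q b w = 0 := by rw [polar_comm]; exact hb1 0
  have hab : polar Q a b = 0 := P.polarU ha hb
  refine ⟨T Q a b, T_mem_E a b, ?_, ?_⟩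
  · have key : ∀ {b : V}, b ∈ U → ∀ u ∈ U, T Q a b u ∈ U := by
      intro b hb u hu
      rw [T_apply_perp (P.tsU a ha) (P.polarU ha hb) (P.polarU ha hu)]
      exact U.sub_mem hu (U.smul_mem _ ha)
    refine map_eq_self_of_le (key hb) ?_
    rw [T_inv (P.tsU a ha) hab]
    exact key (U.neg_mem hb)
  · intro h
    have h1 : T Q a b w ∈ W := by
      rw [← h]
      exact ⟨w, hw, rfl⟩
    rw [T_apply_root (P.tsU a ha) (P.tsU b hb) hab, haw, hbw, one_smul, zero_smul, sub_zero] at h1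
    have h2 : b ∈ W := by simpa using W.sub_mem h1 hw
    exact hb0 (P.eq_zero hb h2)

end Cfsg.Agent.H887.TS
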